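import Mathlib
import Cfsg.Agent.Lib.Helper56.TC
import Cfsg.Agent.Lib.Helper28.HeMult.L0.D
set_option autoImplicit false
set_option maxRecDepth 1000000

namespace Cfsg.Agent.Lib.Helper28.HeMult.L0

open Cfsg.Agent.Lib.Helper56.TC Cfsg.Agent.Lib.Helper56.TC.Tabs
open Cfsg.Agent.Lib.Helper28.CovL

theorem cN_0 : allRange (fun x => forceN T.chkName x) 0 398 = true := by decide +kernel
theorem cN_398 : allRange (fun x => forceN T.chkName x) 398 390 = true := by decide +kernel
theorem cN_788 : allRange (fun x => forceN T.chkName x) 788 390 = true := by decide +kernel
theorem cN_1178 : allRange (fun x => forceN T.chkName x) 1178 391 = true := by decide +kernel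
theorem cN_1569 : allRange (fun x => forceN T.chkName x) 1569 383 = true := by decide +kernel
theorem cN_1952 : allRange (fun x => forceN T.chkName x) 1952 388 = true := by decide +kernel
theorem cN_2340 : allRange (fun x => forceN T.chkName x) 2340 382 = true := by decide +kernel
theorem cN_2722 : allRange (fun x => forceN T.chkName x) 2722 391 = true := by decide +kernel
theorem cN_3113 : allRange (fun x => forceN T.chkName x) 3113 390 = true := by decide +kernel
theorem cN_3503 : allRange (fun x => forceN T.chkName x) 3503 390 = true := by decide +kernel
theorem cN_3893 : allRange (fun x => forceN T.chkName x) 3893 431 = true := by decide +kernel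
theorem cN_4324 : allRange (fun x => forceN T.chkName x) 4324 513 = true := by decide +kernel

end Cfsg.Agent.Lib.Helper28.HeMult.L0
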