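import Mathlib
import Cfsg.Agent.Lib.Helper56.TC
import Cfsg.Agent.Lib.Helper28.HeMult.L0.D
set_option autoImplicit false
set_option maxRecDepth 1000000

namespace Cfsg.Agent.Lib.Helper28.HeMult.L0

open Cfsg.Agent.Lib.Helper56.TC Cfsg.Agent.Lib.Helper56.TC.Tabs
open Cfsg.Agent.Lib.Helper28.CovL

theorem cN_4837 : allRange (fun x => forceN T.chkName x) 4837 546 = true := by decide +kernel
theorem cN_5383 : allRange (fun x => forceN T.chkName x) 5383 535 = true := by decide +kernel
theorem cN_5918 : allRange (fun x => forceN T.chkName x) 5918 560 = true := by decide +kernel
theorem cN_6478 : allRange (fun x => forceN T.chkName x) 6478 542 = true := by decide +kernel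
theorem cN_7020 : allRange (fun x => forceN T.chkName x) 7020 544 = true := by decide +kernel
theorem cN_7564 : allRange (fun x => forceN T.chkName x) 7564 563 = true := by decide +kernel
theorem cN_8127 : allRange (fun x => forceN T.chkName x) 8127 566 = true := by decide +kernel
theorem cN_8693 : allRange (fun x => forceN T.chkName x) 8693 565 = true := by decide +kernel
theorem cN_9258 : allRange (fun x => forceN T.chkName x) 9258 564 = true := by decide +kernel
theorem cN_9822 : allRange (fun x => forceN T.chkName x) 9822 535 = true := by decide +kernel
theorem cN_10357 : allRange (fun x => forceN T.chkName x) 10357 549 = true := by decide +kernel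
theorem cN_10906 : allRange (fun x => forceN T.chkName x) 10906 546 = true := by decide +kernel

end Cfsg.Agent.Lib.Helper28.HeMult.L0
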