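import Mathlib
import Cfsg.Agent.Lib.Helper56.TC
import Cfsg.Agent.Lib.Helper28.HeMult.L0.D
set_option autoImplicit false
set_option maxRecDepth 1000000

namespace Cfsg.Agent.Lib.Helper28.HeMult.L0

open Cfsg.Agent.Lib.Helper56.TC Cfsg.Agent.Lib.Helper56.TC.Tabs
open Cfsg.Agent.Lib.Helper28.CovL

theorem cN_65864 : allRange (fun x => forceN T.chkName x) 65864 576 = true := by decide +kernel
theorem cN_66440 : allRange (fun x => forceN T.chkName x) 66440 567 = true := by decide +kernel
theorem cN_67007 : allRange (fun x => forceN T.chkName x) 67007 569 = true := by decide +kernel
theorem cN_67576 : allRange (fun x => forceN T.chkName x) 67576 574 = true := by decide +kernel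
theorem cN_68150 : allRange (fun x => forceN T.chkName x) 68150 571 = true := by decide +kernel
theorem cN_68721 : allRange (fun x => forceN T.chkName x) 68721 560 = true := by decide +kernel
theorem cN_69281 : allRange (fun x => forceN T.chkName x) 69281 570 = true := by decide +kernel
theorem cN_69851 : allRange (fun x => forceN T.chkName x) 69851 576 = true := by decide +kernel
theorem cN_70427 : allRange (fun x => forceN T.chkName x) 70427 575 = true := by decide +kernel
theorem cN_71002 : allRange (fun x => forceN T.chkName x) 71002 570 = true := by decide +kernel
theorem cN_71572 : allRange (fun x => forceN T.chkName x) 71572 564 = true := by decide +kernel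
theorem cN_72136 : allRange (fun x => forceN T.chkName x) 72136 570 = true := by decide +kernel

end Cfsg.Agent.Lib.Helper28.HeMult.L0
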