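import Mathlib
import Cfsg.Agent.Lib.Helper56.TC
import Cfsg.Agent.Lib.Helper28.HeMult.L0.D
set_option autoImplicit false
set_option maxRecDepth 1000000

namespace Cfsg.Agent.Lib.Helper28.HeMult.L0

open Cfsg.Agent.Lib.Helper56.TC Cfsg.Agent.Lib.Helper56.TC.Tabs
open Cfsg.Agent.Lib.Helper28.CovL

theorem cN_72706 : allRange (fun x => forceN T.chkName x) 72706 568 = true := by decide +kernel
theorem cN_73274 : allRange (fun x => forceN T.chkName x) 73274 554 = true := by decide +kernel
theorem cN_73828 : allRange (fun x => forceN T.chkName x) 73828 568 = true := by decide +kernel
theorem cN_74396 : allRange (fun x => forceN T.chkName x) 74396 569 = true := by decide +kernel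
theorem cN_74965 : allRange (fun x => forceN T.chkName x) 74965 569 = true := by decide +kernel
theorem cN_75534 : allRange (fun x => forceN T.chkName x) 75534 552 = true := by decide +kernel
theorem cN_76086 : allRange (fun x => forceN T.chkName x) 76086 551 = true := by decide +kernel
theorem cN_76637 : allRange (fun x => forceN T.chkName x) 76637 554 = true := by decide +kernel
theorem cN_77191 : allRange (fun x => forceN T.chkName x) 77191 556 = true := by decide +kernel
theorem cN_77747 : allRange (fun x => forceN T.chkName x) 77747 561 = true := by decide +kernel
theorem cN_78308 : allRange (fun x => forceN T.chkName x) 78308 556 = true := by decide +kernel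
theorem cN_78864 : allRange (fun x => forceN T.chkName x) 78864 570 = true := by decide +kernel

end Cfsg.Agent.Lib.Helper28.HeMult.L0
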