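import Mathlib
import Cfsg.Agent.Lib.Helper56.TC
import Cfsg.Agent.Lib.Helper28.HeMult.L0.D
set_option autoImplicit false
set_option maxRecDepth 1000000

namespace Cfsg.Agent.Lib.Helper28.HeMult.L0

open Cfsg.Agent.Lib.Helper56.TC Cfsg.Agent.Lib.Helper56.TC.Tabs
open Cfsg.Agent.Lib.Helper28.CovL

theorem cN_79434 : allRange (fun x => forceN T.chkName x) 79434 566 = true := by decide +kernel
theorem cN_80000 : allRange (fun x => forceN T.chkName x) 80000 561 = true := by decide +kernel
theorem cN_80561 : allRange (fun x => forceN T.chkName x) 80561 562 = true := by decide +kernel
theorem cN_81123 : allRange (fun x => forceN T.chkName x) 81123 560 = true := by decide +kernel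
theorem cN_81683 : allRange (fun x => forceN T.chkName x) 81683 505 = true := by decide +kernel
theorem cN_82188 : allRange (fun x => forceN T.chkName x) 82188 513 = true := by decide +kernel
theorem cN_82701 : allRange (fun x => forceN T.chkName x) 82701 514 = true := by decide +kernel
theorem cN_83215 : allRange (fun x => forceN T.chkName x) 83215 483 = true := by decide +kernel
theorem cN_83698 : allRange (fun x => forceN T.chkName x) 83698 456 = true := by decide +kernel
theorem cN_84154 : allRange (fun x => forceN T.chkName x) 84154 471 = true := by decide +kernel
theorem cN_84625 : allRange (fun x => forceN T.chkName x) 84625 495 = true := by decide +kernel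
theorem cN_85120 : allRange (fun x => forceN T.chkName x) 85120 508 = true := by decide +kernel

end Cfsg.Agent.Lib.Helper28.HeMult.L0
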