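import Mathlib
import Cfsg.Agent.Lib.Helper56.TC
import Cfsg.Agent.Lib.Helper28.HeMult.L0.D
set_option autoImplicit false
set_option maxRecDepth 1000000

namespace Cfsg.Agent.Lib.Helper28.HeMult.L0

open Cfsg.Agent.Lib.Helper56.TC Cfsg.Agent.Lib.Helper56.TC.Tabs
open Cfsg.Agent.Lib.Helper28.CovL

theorem cN_85628 : allRange (fun x => forceN T.chkName x) 85628 520 = true := by decide +kernel
theorem cN_86148 : allRange (fun x => forceN T.chkName x) 86148 495 = true := by decide +kernel
theorem cN_86643 : allRange (fun x => forceN T.chkName x) 86643 521 = true := by decide +kernel
theorem cN_87164 : allRange (fun x => forceN T.chkName x) 87164 504 = true := by decide +kernel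
theorem cN_87668 : allRange (fun x => forceN T.chkName x) 87668 496 = true := by decide +kernel
theorem cN_88164 : allRange (fun x => forceN T.chkName x) 88164 499 = true := by decide +kernel
theorem cN_88663 : allRange (fun x => forceN T.chkName x) 88663 492 = true := by decide +kernel
theorem cN_89155 : allRange (fun x => forceN T.chkName x) 89155 483 = true := by decide +kernel
theorem cN_89638 : allRange (fun x => forceN T.chkName x) 89638 513 = true := by decide +kernel
theorem cN_90151 : allRange (fun x => forceN T.chkName x) 90151 516 = true := by decide +kernel
theorem cN_90667 : allRange (fun x => forceN T.chkName x) 90667 506 = true := by decide +kernel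
theorem cN_91173 : allRange (fun x => forceN T.chkName x) 91173 500 = true := by decide +kernel

end Cfsg.Agent.Lib.Helper28.HeMult.L0
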