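import Mathlib
import Cfsg.Agent.Lib.Helper56.TC
import Cfsg.Agent.Lib.Helper28.HeMult.L0.D
set_option autoImplicit false
set_option maxRecDepth 1000000

namespace Cfsg.Agent.Lib.Helper28.HeMult.L0

open Cfsg.Agent.Lib.Helper56.TC Cfsg.Agent.Lib.Helper56.TC.Tabs
open Cfsg.Agent.Lib.Helper28.CovL

theorem cN_91673 : allRange (fun x => forceN T.chkName x) 91673 479 = true := by decide +kernel
theorem cN_92152 : allRange (fun x => forceN T.chkName x) 92152 501 = true := by decide +kernel
theorem cN_92653 : allRange (fun x => forceN T.chkName x) 92653 516 = true := by decide +kernel
theorem cN_93169 : allRange (fun x => forceN T.chkName x) 93169 512 = true := by decide +kernel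
theorem cN_93681 : allRange (fun x => forceN T.chkName x) 93681 505 = true := by decide +kernel
theorem cN_94186 : allRange (fun x => forceN T.chkName x) 94186 528 = true := by decide +kernel
theorem cN_94714 : allRange (fun x => forceN T.chkName x) 94714 531 = true := by decide +kernel
theorem cN_95245 : allRange (fun x => forceN T.chkName x) 95245 529 = true := by decide +kernel
theorem cN_95774 : allRange (fun x => forceN T.chkName x) 95774 497 = true := by decide +kernel
theorem cN_96271 : allRange (fun x => forceN T.chkName x) 96271 520 = true := by decide +kernel
theorem cN_96791 : allRange (fun x => forceN T.chkName x) 96791 527 = true := by decide +kernel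
theorem cN_97318 : allRange (fun x => forceN T.chkName x) 97318 505 = true := by decide +kernel

end Cfsg.Agent.Lib.Helper28.HeMult.L0
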