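import Mathlib
import Cfsg.Agent.Lib.Helper56.TC
import Cfsg.Agent.Lib.Helper28.HeMult.L0.D
set_option autoImplicit false
set_option maxRecDepth 1000000

namespace Cfsg.Agent.Lib.Helper28.HeMult.L0

open Cfsg.Agent.Lib.Helper56.TC Cfsg.Agent.Lib.Helper56.TC.Tabs
open Cfsg.Agent.Lib.Helper28.CovL

theorem cN_97823 : allRange (fun x => forceN T.chkName x) 97823 502 = true := by decide +kernel
theorem cN_98325 : allRange (fun x => forceN T.chkName x) 98325 503 = true := by decide +kernel
theorem cN_98828 : allRange (fun x => forceN T.chkName x) 98828 528 = true := by decide +kernel
theorem cN_99356 : allRange (fun x => forceN T.chkName x) 99356 538 = true := by decide +kernel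
theorem cN_99894 : allRange (fun x => forceN T.chkName x) 99894 513 = true := by decide +kernel
theorem cN_100407 : allRange (fun x => forceN T.chkName x) 100407 518 = true := by decide +kernel
theorem cN_100925 : allRange (fun x => forceN T.chkName x) 100925 527 = true := by decide +kernel
theorem cN_101452 : allRange (fun x => forceN T.chkName x) 101452 516 = true := by decide +kernel
theorem cN_101968 : allRange (fun x => forceN T.chkName x) 101968 529 = true := by decide +kernel
theorem cN_102497 : allRange (fun x => forceN T.chkName x) 102497 535 = true := by decide +kernel
theorem cN_103032 : allRange (fun x => forceN T.chkName x) 103032 536 = true := by decide +kernel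
theorem cN_103568 : allRange (fun x => forceN T.chkName x) 103568 526 = true := by decide +kernel

end Cfsg.Agent.Lib.Helper28.HeMult.L0
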