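import Mathlib
import Cfsg.Agent.Lib.Helper56.TC
import Cfsg.Agent.Lib.Helper28.HeMult.L0.D
set_option autoImplicit false
set_option maxRecDepth 1000000

namespace Cfsg.Agent.Lib.Helper28.HeMult.L0

open Cfsg.Agent.Lib.Helper56.TC Cfsg.Agent.Lib.Helper56.TC.Tabs
open Cfsg.Agent.Lib.Helper28.CovL

theorem cN_104094 : allRange (fun x => forceN T.chkName x) 104094 524 = true := by decide +kernel
theorem cN_104618 : allRange (fun x => forceN T.chkName x) 104618 519 = true := by decide +kernel
theorem cN_105137 : allRange (fun x => forceN T.chkName x) 105137 504 = true := by decide +kernel
theorem cN_105641 : allRange (fun x => forceN T.chkName x) 105641 500 = true := by decide +kernel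
theorem cN_106141 : allRange (fun x => forceN T.chkName x) 106141 509 = true := by decide +kernel
theorem cN_106650 : allRange (fun x => forceN T.chkName x) 106650 508 = true := by decide +kernel
theorem cN_107158 : allRange (fun x => forceN T.chkName x) 107158 500 = true := by decide +kernel
theorem cN_107658 : allRange (fun x => forceN T.chkName x) 107658 501 = true := by decide +kernel
theorem cN_108159 : allRange (fun x => forceN T.chkName x) 108159 524 = true := by decide +kernel
theorem cN_108683 : allRange (fun x => forceN T.chkName x) 108683 518 = true := by decide +kernel
theorem cN_109201 : allRange (fun x => forceN T.chkName x) 109201 515 = true := by decide +kernel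
theorem cN_109716 : allRange (fun x => forceN T.chkName x) 109716 503 = true := by decide +kernel

end Cfsg.Agent.Lib.Helper28.HeMult.L0
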