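import Mathlib
import Cfsg.Agent.Lib.Helper56.TC
import Cfsg.Agent.Lib.Helper28.HeMult.L0.D
set_option autoImplicit false
set_option maxRecDepth 1000000

namespace Cfsg.Agent.Lib.Helper28.HeMult.L0

open Cfsg.Agent.Lib.Helper56.TC Cfsg.Agent.Lib.Helper56.TC.Tabs
open Cfsg.Agent.Lib.Helper28.CovL

theorem cN_110219 : allRange (fun x => forceN T.chkName x) 110219 520 = true := by decide +kernel
theorem cN_110739 : allRange (fun x => forceN T.chkName x) 110739 520 = true := by decide +kernel
theorem cN_111259 : allRange (fun x => forceN T.chkName x) 111259 517 = true := by decide +kernel
theorem cN_111776 : allRange (fun x => forceN T.chkName x) 111776 522 = true := by decide +kernel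
theorem cN_112298 : allRange (fun x => forceN T.chkName x) 112298 530 = true := by decide +kernel
theorem cN_112828 : allRange (fun x => forceN T.chkName x) 112828 511 = true := by decide +kernel
theorem cN_113339 : allRange (fun x => forceN T.chkName x) 113339 532 = true := by decide +kernel
theorem cN_113871 : allRange (fun x => forceN T.chkName x) 113871 529 = true := by decide +kernel
theorem cN_114400 : allRange (fun x => forceN T.chkName x) 114400 517 = true := by decide +kernel
theorem cN_114917 : allRange (fun x => forceN T.chkName x) 114917 514 = true := by decide +kernel
theorem cN_115431 : allRange (fun x => forceN T.chkName x) 115431 531 = true := by decide +kernel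
theorem cN_115962 : allRange (fun x => forceN T.chkName x) 115962 542 = true := by decide +kernel

end Cfsg.Agent.Lib.Helper28.HeMult.L0
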