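import Mathlib
import Cfsg.Agent.Lib.Helper56.TC
import Cfsg.Agent.Lib.Helper28.HeMult.L0.D
set_option autoImplicit false
set_option maxRecDepth 1000000

namespace Cfsg.Agent.Lib.Helper28.HeMult.L0

open Cfsg.Agent.Lib.Helper56.TC Cfsg.Agent.Lib.Helper56.TC.Tabs
open Cfsg.Agent.Lib.Helper28.CovL

theorem cN_116504 : allRange (fun x => forceN T.chkName x) 116504 505 = true := by decide +kernel
theorem cN_117009 : allRange (fun x => forceN T.chkName x) 117009 513 = true := by decide +kernel
theorem cN_117522 : allRange (fun x => forceN T.chkName x) 117522 531 = true := by decide +kernel
theorem cN_118053 : allRange (fun x => forceN T.chkName x) 118053 529 = true := by decide +kernel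
theorem cN_118582 : allRange (fun x => forceN T.chkName x) 118582 530 = true := by decide +kernel
theorem cN_119112 : allRange (fun x => forceN T.chkName x) 119112 545 = true := by decide +kernel
theorem cN_119657 : allRange (fun x => forceN T.chkName x) 119657 545 = true := by decide +kernel
theorem cN_120202 : allRange (fun x => forceN T.chkName x) 120202 534 = true := by decide +kernel
theorem cN_120736 : allRange (fun x => forceN T.chkName x) 120736 487 = true := by decide +kernel
theorem cN_121223 : allRange (fun x => forceN T.chkName x) 121223 511 = true := by decide +kernel
theorem cN_121734 : allRange (fun x => forceN T.chkName x) 121734 521 = true := by decide +kernel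
theorem cN_122255 : allRange (fun x => forceN T.chkName x) 122255 500 = true := by decide +kernel

end Cfsg.Agent.Lib.Helper28.HeMult.L0
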