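import Mathlib
import Cfsg.Agent.Lib.Helper56.TC
import Cfsg.Agent.Lib.Helper28.HeMult.L0.D
set_option autoImplicit false
set_option maxRecDepth 1000000

namespace Cfsg.Agent.Lib.Helper28.HeMult.L0

open Cfsg.Agent.Lib.Helper56.TC Cfsg.Agent.Lib.Helper56.TC.Tabs
open Cfsg.Agent.Lib.Helper28.CovL

theorem cN_122755 : allRange (fun x => forceN T.chkName x) 122755 519 = true := by decide +kernel
theorem cN_123274 : allRange (fun x => forceN T.chkName x) 123274 517 = true := by decide +kernel
theorem cN_123791 : allRange (fun x => forceN T.chkName x) 123791 518 = true := by decide +kernel
theorem cN_124309 : allRange (fun x => forceN T.chkName x) 124309 518 = true := by decide +kernel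
theorem cN_124827 : allRange (fun x => forceN T.chkName x) 124827 525 = true := by decide +kernel
theorem cN_125352 : allRange (fun x => forceN T.chkName x) 125352 534 = true := by decide +kernel
theorem cN_125886 : allRange (fun x => forceN T.chkName x) 125886 531 = true := by decide +kernel
theorem cN_126417 : allRange (fun x => forceN T.chkName x) 126417 530 = true := by decide +kernel
theorem cN_126947 : allRange (fun x => forceN T.chkName x) 126947 534 = true := by decide +kernel
theorem cN_127481 : allRange (fun x => forceN T.chkName x) 127481 530 = true := by decide +kernel
theorem cN_128011 : allRange (fun x => forceN T.chkName x) 128011 513 = true := by decide +kernel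
theorem cN_128524 : allRange (fun x => forceN T.chkName x) 128524 528 = true := by decide +kernel

end Cfsg.Agent.Lib.Helper28.HeMult.L0
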