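import Mathlib
import Cfsg.Agent.Lib.Helper56.TC
import Cfsg.Agent.Lib.Helper28.HeMult.L0.D
set_option autoImplicit false
set_option maxRecDepth 1000000

namespace Cfsg.Agent.Lib.Helper28.HeMult.L0

open Cfsg.Agent.Lib.Helper56.TC Cfsg.Agent.Lib.Helper56.TC.Tabs
open Cfsg.Agent.Lib.Helper28.CovL

theorem cN_11452 : allRange (fun x => forceN T.chkName x) 11452 542 = true := by decide +kernel
theorem cN_11994 : allRange (fun x => forceN T.chkName x) 11994 550 = true := by decide +kernel
theorem cN_12544 : allRange (fun x => forceN T.chkName x) 12544 548 = true := by decide +kernel
theorem cN_13092 : allRange (fun x => forceN T.chkName x) 13092 552 = true := by decide +kernel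
theorem cN_13644 : allRange (fun x => forceN T.chkName x) 13644 567 = true := by decide +kernel
theorem cN_14211 : allRange (fun x => forceN T.chkName x) 14211 552 = true := by decide +kernel
theorem cN_14763 : allRange (fun x => forceN T.chkName x) 14763 553 = true := by decide +kernel
theorem cN_15316 : allRange (fun x => forceN T.chkName x) 15316 546 = true := by decide +kernel
theorem cN_15862 : allRange (fun x => forceN T.chkName x) 15862 556 = true := by decide +kernel
theorem cN_16418 : allRange (fun x => forceN T.chkName x) 16418 548 = true := by decide +kernel
theorem cN_16966 : allRange (fun x => forceN T.chkName x) 16966 554 = true := by decide +kernel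
theorem cN_17520 : allRange (fun x => forceN T.chkName x) 17520 565 = true := by decide +kernel

end Cfsg.Agent.Lib.Helper28.HeMult.L0
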