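import Mathlib
import Cfsg.Agent.Lib.Helper56.TC
import Cfsg.Agent.Lib.Helper28.HeMult.L0.D
set_option autoImplicit false
set_option maxRecDepth 1000000

namespace Cfsg.Agent.Lib.Helper28.HeMult.L0

open Cfsg.Agent.Lib.Helper56.TC Cfsg.Agent.Lib.Helper56.TC.Tabs
open Cfsg.Agent.Lib.Helper28.CovL

theorem cN_129052 : allRange (fun x => forceN T.chkName x) 129052 536 = true := by decide +kernel
theorem cN_129588 : allRange (fun x => forceN T.chkName x) 129588 530 = true := by decide +kernel
theorem cN_130118 : allRange (fun x => forceN T.chkName x) 130118 540 = true := by decide +kernel
theorem cN_130658 : allRange (fun x => forceN T.chkName x) 130658 538 = true := by decide +kernel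
theorem cN_131196 : allRange (fun x => forceN T.chkName x) 131196 541 = true := by decide +kernel
theorem cN_131737 : allRange (fun x => forceN T.chkName x) 131737 513 = true := by decide +kernel
theorem cN_132250 : allRange (fun x => forceN T.chkName x) 132250 507 = true := by decide +kernel
theorem cN_132757 : allRange (fun x => forceN T.chkName x) 132757 508 = true := by decide +kernel
theorem cN_133265 : allRange (fun x => forceN T.chkName x) 133265 510 = true := by decide +kernel
theorem cN_133775 : allRange (fun x => forceN T.chkName x) 133775 513 = true := by decide +kernel
theorem cN_134288 : allRange (fun x => forceN T.chkName x) 134288 516 = true := by decide +kernel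
theorem cN_134804 : allRange (fun x => forceN T.chkName x) 134804 512 = true := by decide +kernel

end Cfsg.Agent.Lib.Helper28.HeMult.L0
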