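import Mathlib
import Cfsg.Agent.Lib.Helper56.TC
import Cfsg.Agent.Lib.Helper28.HeMult.L0.D
set_option autoImplicit false
set_option maxRecDepth 1000000

namespace Cfsg.Agent.Lib.Helper28.HeMult.L0

open Cfsg.Agent.Lib.Helper56.TC Cfsg.Agent.Lib.Helper56.TC.Tabs
open Cfsg.Agent.Lib.Helper28.CovL

theorem cN_135316 : allRange (fun x => forceN T.chkName x) 135316 515 = true := by decide +kernel
theorem cN_135831 : allRange (fun x => forceN T.chkName x) 135831 522 = true := by decide +kernel
theorem cN_136353 : allRange (fun x => forceN T.chkName x) 136353 519 = true := by decide +kernel
theorem cN_136872 : allRange (fun x => forceN T.chkName x) 136872 518 = true := by decide +kernel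
theorem cN_137390 : allRange (fun x => forceN T.chkName x) 137390 525 = true := by decide +kernel
theorem cN_137915 : allRange (fun x => forceN T.chkName x) 137915 515 = true := by decide +kernel
theorem cN_138430 : allRange (fun x => forceN T.chkName x) 138430 513 = true := by decide +kernel
theorem cN_138943 : allRange (fun x => forceN T.chkName x) 138943 514 = true := by decide +kernel
theorem cN_139457 : allRange (fun x => forceN T.chkName x) 139457 519 = true := by decide +kernel
theorem cN_139976 : allRange (fun x => forceN T.chkName x) 139976 510 = true := by decide +kernel
theorem cN_140486 : allRange (fun x => forceN T.chkName x) 140486 150 = true := by decide +kernel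
theorem cF_0 : allRange (fun x => forceN T.chkFinName x) 0 168 = true := by decide +kernel

end Cfsg.Agent.Lib.Helper28.HeMult.L0
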