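import Mathlib
import Cfsg.Agent.Lib.Helper56.TC
import Cfsg.Agent.Lib.Helper28.HeMult.L0.D
set_option autoImplicit false
set_option maxRecDepth 1000000

namespace Cfsg.Agent.Lib.Helper28.HeMult.L0

open Cfsg.Agent.Lib.Helper56.TC Cfsg.Agent.Lib.Helper56.TC.Tabs
open Cfsg.Agent.Lib.Helper28.CovL

theorem cF_168 : allRange (fun x => forceN T.chkFinName x) 168 168 = true := by decide +kernel
theorem cF_336 : allRange (fun x => forceN T.chkFinName x) 336 168 = true := by decide +kernel
theorem cF_504 : allRange (fun x => forceN T.chkFinName x) 504 168 = true := by decide +kernel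
theorem cF_672 : allRange (fun x => forceN T.chkFinName x) 672 168 = true := by decide +kernel
theorem cF_840 : allRange (fun x => forceN T.chkFinName x) 840 168 = true := by decide +kernel
theorem cF_1008 : allRange (fun x => forceN T.chkFinName x) 1008 168 = true := by decide +kernel
theorem cF_1176 : allRange (fun x => forceN T.chkFinName x) 1176 168 = true := by decide +kernel
theorem cF_1344 : allRange (fun x => forceN T.chkFinName x) 1344 168 = true := by decide +kernel
theorem cF_1512 : allRange (fun x => forceN T.chkFinName x) 1512 168 = true := by decide +kernel
theorem cF_1680 : allRange (fun x => forceN T.chkFinName x) 1680 168 = true := by decide +kernel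
theorem cF_1848 : allRange (fun x => forceN T.chkFinName x) 1848 168 = true := by decide +kernel
theorem cF_2016 : allRange (fun x => forceN T.chkFinName x) 2016 168 = true := by decide +kernel

end Cfsg.Agent.Lib.Helper28.HeMult.L0
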