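import Mathlib
import Cfsg.Agent.Lib.Helper56.TC
import Cfsg.Agent.Lib.Helper28.HeMult.L0.D
set_option autoImplicit false
set_option maxRecDepth 1000000

namespace Cfsg.Agent.Lib.Helper28.HeMult.L0

open Cfsg.Agent.Lib.Helper56.TC Cfsg.Agent.Lib.Helper56.TC.Tabs
open Cfsg.Agent.Lib.Helper28.CovL

theorem cF_2184 : allRange (fun x => forceN T.chkFinName x) 2184 168 = true := by decide +kernel
theorem cF_2352 : allRange (fun x => forceN T.chkFinName x) 2352 168 = true := by decide +kernel
theorem cF_2520 : allRange (fun x => forceN T.chkFinName x) 2520 168 = true := by decide +kernel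
theorem cF_2688 : allRange (fun x => forceN T.chkFinName x) 2688 168 = true := by decide +kernel
theorem cF_2856 : allRange (fun x => forceN T.chkFinName x) 2856 168 = true := by decide +kernel
theorem cF_3024 : allRange (fun x => forceN T.chkFinName x) 3024 168 = true := by decide +kernel
theorem cF_3192 : allRange (fun x => forceN T.chkFinName x) 3192 168 = true := by decide +kernel
theorem cF_3360 : allRange (fun x => forceN T.chkFinName x) 3360 168 = true := by decide +kernel
theorem cF_3528 : allRange (fun x => forceN T.chkFinName x) 3528 168 = true := by decide +kernel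
theorem cF_3696 : allRange (fun x => forceN T.chkFinName x) 3696 168 = true := by decide +kernel
theorem cF_3864 : allRange (fun x => forceN T.chkFinName x) 3864 168 = true := by decide +kernel
theorem cF_4032 : allRange (fun x => forceN T.chkFinName x) 4032 84 = true := by decide +kernel

end Cfsg.Agent.Lib.Helper28.HeMult.L0
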