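import Mathlib
import Cfsg.Agent.Lib.Helper56.TC
import Cfsg.Agent.Lib.Helper28.HeMult.L0.D
set_option autoImplicit false
set_option maxRecDepth 1000000

namespace Cfsg.Agent.Lib.Helper28.HeMult.L0

open Cfsg.Agent.Lib.Helper56.TC Cfsg.Agent.Lib.Helper56.TC.Tabs
open Cfsg.Agent.Lib.Helper28.CovL

theorem cN_18085 : allRange (fun x => forceN T.chkName x) 18085 551 = true := by decide +kernel
theorem cN_18636 : allRange (fun x => forceN T.chkName x) 18636 559 = true := by decide +kernel
theorem cN_19195 : allRange (fun x => forceN T.chkName x) 19195 567 = true := by decide +kernel
theorem cN_19762 : allRange (fun x => forceN T.chkName x) 19762 566 = true := by decide +kernel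
theorem cN_20328 : allRange (fun x => forceN T.chkName x) 20328 555 = true := by decide +kernel
theorem cN_20883 : allRange (fun x => forceN T.chkName x) 20883 561 = true := by decide +kernel
theorem cN_21444 : allRange (fun x => forceN T.chkName x) 21444 554 = true := by decide +kernel
theorem cN_21998 : allRange (fun x => forceN T.chkName x) 21998 556 = true := by decide +kernel
theorem cN_22554 : allRange (fun x => forceN T.chkName x) 22554 559 = true := by decide +kernel
theorem cN_23113 : allRange (fun x => forceN T.chkName x) 23113 557 = true := by decide +kernel
theorem cN_23670 : allRange (fun x => forceN T.chkName x) 23670 567 = true := by decide +kernel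
theorem cN_24237 : allRange (fun x => forceN T.chkName x) 24237 568 = true := by decide +kernel

end Cfsg.Agent.Lib.Helper28.HeMult.L0
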