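import Mathlib
import Cfsg.Agent.Lib.Helper56.TC
import Cfsg.Agent.Lib.Helper28.HeMult.L0.D
set_option autoImplicit false
set_option maxRecDepth 1000000

namespace Cfsg.Agent.Lib.Helper28.HeMult.L0

open Cfsg.Agent.Lib.Helper56.TC Cfsg.Agent.Lib.Helper56.TC.Tabs
open Cfsg.Agent.Lib.Helper28.CovL

theorem cN_24805 : allRange (fun x => forceN T.chkName x) 24805 569 = true := by decide +kernel
theorem cN_25374 : allRange (fun x => forceN T.chkName x) 25374 571 = true := by decide +kernel
theorem cN_25945 : allRange (fun x => forceN T.chkName x) 25945 570 = true := by decide +kernel
theorem cN_26515 : allRange (fun x => forceN T.chkName x) 26515 573 = true := by decide +kernel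
theorem cN_27088 : allRange (fun x => forceN T.chkName x) 27088 574 = true := by decide +kernel
theorem cN_27662 : allRange (fun x => forceN T.chkName x) 27662 576 = true := by decide +kernel
theorem cN_28238 : allRange (fun x => forceN T.chkName x) 28238 579 = true := by decide +kernel
theorem cN_28817 : allRange (fun x => forceN T.chkName x) 28817 575 = true := by decide +kernel
theorem cN_29392 : allRange (fun x => forceN T.chkName x) 29392 579 = true := by decide +kernel
theorem cN_29971 : allRange (fun x => forceN T.chkName x) 29971 573 = true := by decide +kernel
theorem cN_30544 : allRange (fun x => forceN T.chkName x) 30544 574 = true := by decide +kernel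
theorem cN_31118 : allRange (fun x => forceN T.chkName x) 31118 573 = true := by decide +kernel

end Cfsg.Agent.Lib.Helper28.HeMult.L0
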