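import Mathlib
import Cfsg.Agent.Lib.Helper56.TC
import Cfsg.Agent.Lib.Helper28.HeMult.L0.D
set_option autoImplicit false
set_option maxRecDepth 1000000

namespace Cfsg.Agent.Lib.Helper28.HeMult.L0

open Cfsg.Agent.Lib.Helper56.TC Cfsg.Agent.Lib.Helper56.TC.Tabs
open Cfsg.Agent.Lib.Helper28.CovL

theorem cN_31691 : allRange (fun x => forceN T.chkName x) 31691 573 = true := by decide +kernel
theorem cN_32264 : allRange (fun x => forceN T.chkName x) 32264 574 = true := by decide +kernel
theorem cN_32838 : allRange (fun x => forceN T.chkName x) 32838 572 = true := by decide +kernel
theorem cN_33410 : allRange (fun x => forceN T.chkName x) 33410 573 = true := by decide +kernel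
theorem cN_33983 : allRange (fun x => forceN T.chkName x) 33983 571 = true := by decide +kernel
theorem cN_34554 : allRange (fun x => forceN T.chkName x) 34554 573 = true := by decide +kernel
theorem cN_35127 : allRange (fun x => forceN T.chkName x) 35127 573 = true := by decide +kernel
theorem cN_35700 : allRange (fun x => forceN T.chkName x) 35700 566 = true := by decide +kernel
theorem cN_36266 : allRange (fun x => forceN T.chkName x) 36266 571 = true := by decide +kernel
theorem cN_36837 : allRange (fun x => forceN T.chkName x) 36837 567 = true := by decide +kernel
theorem cN_37404 : allRange (fun x => forceN T.chkName x) 37404 566 = true := by decide +kernel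
theorem cN_37970 : allRange (fun x => forceN T.chkName x) 37970 575 = true := by decide +kernel

end Cfsg.Agent.Lib.Helper28.HeMult.L0
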