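import Mathlib
import Cfsg.Agent.Lib.Helper56.TC
import Cfsg.Agent.Lib.Helper28.HeMult.L0.D
set_option autoImplicit false
set_option maxRecDepth 1000000

namespace Cfsg.Agent.Lib.Helper28.HeMult.L0

open Cfsg.Agent.Lib.Helper56.TC Cfsg.Agent.Lib.Helper56.TC.Tabs
open Cfsg.Agent.Lib.Helper28.CovL

theorem cN_38545 : allRange (fun x => forceN T.chkName x) 38545 572 = true := by decide +kernel
theorem cN_39117 : allRange (fun x => forceN T.chkName x) 39117 577 = true := by decide +kernel
theorem cN_39694 : allRange (fun x => forceN T.chkName x) 39694 573 = true := by decide +kernel
theorem cN_40267 : allRange (fun x => forceN T.chkName x) 40267 564 = true := by decide +kernel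
theorem cN_40831 : allRange (fun x => forceN T.chkName x) 40831 569 = true := by decide +kernel
theorem cN_41400 : allRange (fun x => forceN T.chkName x) 41400 570 = true := by decide +kernel
theorem cN_41970 : allRange (fun x => forceN T.chkName x) 41970 566 = true := by decide +kernel
theorem cN_42536 : allRange (fun x => forceN T.chkName x) 42536 565 = true := by decide +kernel
theorem cN_43101 : allRange (fun x => forceN T.chkName x) 43101 568 = true := by decide +kernel
theorem cN_43669 : allRange (fun x => forceN T.chkName x) 43669 566 = true := by decide +kernel
theorem cN_44235 : allRange (fun x => forceN T.chkName x) 44235 575 = true := by decide +kernel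
theorem cN_44810 : allRange (fun x => forceN T.chkName x) 44810 566 = true := by decide +kernel

end Cfsg.Agent.Lib.Helper28.HeMult.L0
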