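import Mathlib
import Cfsg.Agent.Lib.Helper56.TC
import Cfsg.Agent.Lib.Helper28.HeMult.L0.D
set_option autoImplicit false
set_option maxRecDepth 1000000

namespace Cfsg.Agent.Lib.Helper28.HeMult.L0

open Cfsg.Agent.Lib.Helper56.TC Cfsg.Agent.Lib.Helper56.TC.Tabs
open Cfsg.Agent.Lib.Helper28.CovL

theorem cN_45376 : allRange (fun x => forceN T.chkName x) 45376 566 = true := by decide +kernel
theorem cN_45942 : allRange (fun x => forceN T.chkName x) 45942 566 = true := by decide +kernel
theorem cN_46508 : allRange (fun x => forceN T.chkName x) 46508 569 = true := by decide +kernel
theorem cN_47077 : allRange (fun x => forceN T.chkName x) 47077 570 = true := by decide +kernel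
theorem cN_47647 : allRange (fun x => forceN T.chkName x) 47647 563 = true := by decide +kernel
theorem cN_48210 : allRange (fun x => forceN T.chkName x) 48210 573 = true := by decide +kernel
theorem cN_48783 : allRange (fun x => forceN T.chkName x) 48783 564 = true := by decide +kernel
theorem cN_49347 : allRange (fun x => forceN T.chkName x) 49347 573 = true := by decide +kernel
theorem cN_49920 : allRange (fun x => forceN T.chkName x) 49920 573 = true := by decide +kernel
theorem cN_50493 : allRange (fun x => forceN T.chkName x) 50493 568 = true := by decide +kernel
theorem cN_51061 : allRange (fun x => forceN T.chkName x) 51061 569 = true := by decide +kernel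
theorem cN_51630 : allRange (fun x => forceN T.chkName x) 51630 571 = true := by decide +kernel

end Cfsg.Agent.Lib.Helper28.HeMult.L0
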