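import Mathlib
import Cfsg.Agent.Lib.Helper56.TC
import Cfsg.Agent.Lib.Helper28.HeMult.L0.D
set_option autoImplicit false
set_option maxRecDepth 1000000

namespace Cfsg.Agent.Lib.Helper28.HeMult.L0

open Cfsg.Agent.Lib.Helper56.TC Cfsg.Agent.Lib.Helper56.TC.Tabs
open Cfsg.Agent.Lib.Helper28.CovL

theorem cN_52201 : allRange (fun x => forceN T.chkName x) 52201 566 = true := by decide +kernel
theorem cN_52767 : allRange (fun x => forceN T.chkName x) 52767 562 = true := by decide +kernel
theorem cN_53329 : allRange (fun x => forceN T.chkName x) 53329 576 = true := by decide +kernel
theorem cN_53905 : allRange (fun x => forceN T.chkName x) 53905 584 = true := by decide +kernel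
theorem cN_54489 : allRange (fun x => forceN T.chkName x) 54489 583 = true := by decide +kernel
theorem cN_55072 : allRange (fun x => forceN T.chkName x) 55072 582 = true := by decide +kernel
theorem cN_55654 : allRange (fun x => forceN T.chkName x) 55654 581 = true := by decide +kernel
theorem cN_56235 : allRange (fun x => forceN T.chkName x) 56235 577 = true := by decide +kernel
theorem cN_56812 : allRange (fun x => forceN T.chkName x) 56812 574 = true := by decide +kernel
theorem cN_57386 : allRange (fun x => forceN T.chkName x) 57386 577 = true := by decide +kernel
theorem cN_57963 : allRange (fun x => forceN T.chkName x) 57963 572 = true := by decide +kernel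
theorem cN_58535 : allRange (fun x => forceN T.chkName x) 58535 557 = true := by decide +kernel

end Cfsg.Agent.Lib.Helper28.HeMult.L0
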