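import Mathlib
import Cfsg.Agent.Lib.Helper56.TC
import Cfsg.Agent.Lib.Helper28.HeMult.L0.D
set_option autoImplicit false
set_option maxRecDepth 1000000

namespace Cfsg.Agent.Lib.Helper28.HeMult.L0

open Cfsg.Agent.Lib.Helper56.TC Cfsg.Agent.Lib.Helper56.TC.Tabs
open Cfsg.Agent.Lib.Helper28.CovL

theorem cN_59092 : allRange (fun x => forceN T.chkName x) 59092 556 = true := by decide +kernel
theorem cN_59648 : allRange (fun x => forceN T.chkName x) 59648 568 = true := by decide +kernel
theorem cN_60216 : allRange (fun x => forceN T.chkName x) 60216 564 = true := by decide +kernel
theorem cN_60780 : allRange (fun x => forceN T.chkName x) 60780 568 = true := by decide +kernel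
theorem cN_61348 : allRange (fun x => forceN T.chkName x) 61348 562 = true := by decide +kernel
theorem cN_61910 : allRange (fun x => forceN T.chkName x) 61910 570 = true := by decide +kernel
theorem cN_62480 : allRange (fun x => forceN T.chkName x) 62480 576 = true := by decide +kernel
theorem cN_63056 : allRange (fun x => forceN T.chkName x) 63056 568 = true := by decide +kernel
theorem cN_63624 : allRange (fun x => forceN T.chkName x) 63624 559 = true := by decide +kernel
theorem cN_64183 : allRange (fun x => forceN T.chkName x) 64183 560 = true := by decide +kernel
theorem cN_64743 : allRange (fun x => forceN T.chkName x) 64743 556 = true := by decide +kernel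
theorem cN_65299 : allRange (fun x => forceN T.chkName x) 65299 565 = true := by decide +kernel

end Cfsg.Agent.Lib.Helper28.HeMult.L0
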